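import Cfsg.Agent.H18.Carter.UniT
import Cfsg.Agent.H749.BlockOrth

/-!
# Unipotent elements of orthogonal groups are conjugate to all their powers (S3852)

* `conj_pow_symm` : `B` symmetric nondegenerate, `c ∈ Isom B` unipotent, `n ≠ 0` in `F`: `c ~ c ^ n` in `Isom B`;
* `conj_four_E` : `z ∈ O Q`, `z ^ p = 1`: `z ~ z ^ 4` in `E Q`.
-/

set_option autoImplicit false
set_option linter.unusedSectionVars false
set_option linter.unusedVariables false

universe u

namespace Cfsg.Agent.H18.Carter.Uni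

open Cfsg.Agent.H904.FR Cfsg.Agent.H721.FR Cfsg.Agent.H721.SR Cfsg.Agent.H955.FS Module
open Cfsg.Agent.LieClassical.OrthCore Cfsg.Agent.LieClassical.OrthTrans

variable {F V : Type u} [Field F] [AddCommGroup V] [Module F V]

/-- a nondegenerate alternating form has similitudes with all multipliers -/
theorem exists_mul_alt [Finite F] {M : Type u} [AddCommGroup M] [Module F M] [FiniteDimensional F M]
    (β : M →ₗ[F] M →ₗ[F] F) (hs : ∀ x, β x x = 0) (hn : ∀ x, (∀ y, β x y = 0) → x = 0) {c : F} (hc : c ≠ 0) :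
    ∃ A : M ≃ₗ[F] M, ∀ x y, β (A x) (A y) = c * β x y := by
  have hskew : ∀ x y, β x y = - β y x := by
    intro x y
    have := hs (x + y)
    simp only [map_add, LinearMap.add_apply, hs, zero_add, add_zero] at this
    rw [add_comm] at this
    exact eq_neg_of_add_eq_zero_left this
  have hnd : LinearMap.BilinForm.Nondegenerate β := ⟨fun x hx => hn x hx, fun x hx => hn x fun y => by
    rw [hskew, hx y, neg_zero]⟩
  obtain ⟨m, -, e, he⟩ := Cfsg.Agent.H484.GenSp.exists_coord β hs hnd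
  let A : (Fin m ⊕ Fin m → F) ≃ₗ[F] (Fin m ⊕ Fin m → F) :=
    LinearEquiv.piCongrRight fun i => i.elim (fun _ => LinearEquiv.refl F F) (fun _ => LinearEquiv.smulOfUnit (Units.mk0 c hc))
  refine ⟨e ≪≫ₗ A ≪≫ₗ e.symm, fun x y => ?_⟩
  rw [← he, ← he]
  have e1 : ∀ x, e ((e ≪≫ₗ A ≪≫ₗ e.symm) x) = A (e x) := fun x => e.apply_symm_apply _
  rw [e1, e1]
  have e2 : ∀ (v : Fin m ⊕ Fin m → F) i, A v (Sum.inl i) = v (Sum.inl i) := fun _ _ => rfl
  have e3 : ∀ (v : Fin m ⊕ Fin m → F) i, A v (Sum.inr i) = c * v (Sum.inr i) := fun _ _ => rfl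
  rw [Cfsg.Agent.ClassicalGeometry.SympBasic.sympForm_eq_sum, Cfsg.Agent.ClassicalGeometry.SympBasic.sympForm_eq_sum,
    Finset.mul_sum]
  refine Finset.sum_congr rfl fun i _ => ?_
  rw [e2, e2, e3, e3]
  ring

/-- **symmetric forms: `c ~ c ^ n` for all `n` prime to the characteristic** -/
theorem conj_pow_symm [Finite F] [FiniteDimensional F V] {B : V →ₗ[F] V →ₗ[F] F} {c : V ≃ₗ[F] V} (h2 : (2 : F) ≠ 0)
    (hB : ∀ x y, B x y = B y x) (hnd : ∀ x, (∀ y, B x y = 0) → x = 0) (hc : c ∈ Isom B)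
    (hu : ∃ a : ℕ, c ^ (ringChar F) ^ a = 1) {n : ℕ} (hn : (n : F) ≠ 0) : ∃ h ∈ Isom B, h * c * h⁻¹ = c ^ n := by
  obtain ⟨N, hN⟩ := exists_cay h2 hu
  obtain ⟨k, hk⟩ := hN.nil
  have huniq : ∀ N' : V →ₗ[F] V, Cay c N' → N' = N := by
    intro N' hN'
    ext x
    obtain ⟨u, rfl⟩ := hN.exists_eq h2 x
    rw [hN.eq, hN'.eq]
  obtain ⟨h, h5, h6⟩ := exists_sim (ε := 1) (μ := 1) (n := n) h2 (one_mul 1) (fun x y => by rw [one_mul]; exact hB x y) hnd hc hu hn k
    (by
      intro N' hN'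
      rw [huniq N' hN', pow_succ, hk, zero_mul]) (fun _ => True) (by
      intro M _ _ _ β k r hk hr hs hnn _
      refine ⟨?_, trivial⟩
      rcases Nat.even_or_odd' k with ⟨l, rfl | rfl⟩
      · have hu0 : (((n : F))⁻¹) ^ l ≠ 0 := pow_ne_zero _ (inv_ne_zero hn)
        refine ⟨LinearEquiv.smulOfUnit (Units.mk0 _ hu0), fun x y => ?_⟩
        have e : ∀ x : M, LinearEquiv.smulOfUnit (Units.mk0 _ hu0) x = (((n : F))⁻¹) ^ l • x := fun x => rfl
        rw [e, e, map_smul, map_smul, LinearMap.smul_apply, smul_eq_mul, smul_eq_mul, one_mul, pow_mul, pow_two, mul_pow,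
          mul_assoc]
      · have halt : ∀ x, β x x = 0 := by
          intro x
          have := hs x x
          have h4 : (2 : F) * β x x = 0 := by
            rw [pow_succ, pow_mul, neg_one_sq, one_pow] at this
            linear_combination this
          exact (mul_eq_zero.1 h4).resolve_left h2
        obtain ⟨A, hA⟩ := exists_mul_alt β halt hnn (c := (((n : F))⁻¹) ^ (2 * l + 1)) (pow_ne_zero _ (inv_ne_zero hn))
        exact ⟨A, fun x y => by rw [hA, one_mul]⟩) trivial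
  exact ⟨h, mem_isom.2 fun x y => by rw [h5, one_mul], h6⟩

/-- **T1-O** -/
theorem conj_four_E [Finite F] [FiniteDimensional F V] {Q : QuadraticForm F V} (hG : Good Q) {p : ℕ} [CharP F p]
    (hp : p.Prime) (hp2 : p ≠ 2) {z : V ≃ₗ[F] V} (hz : z ∈ O Q) (hzp : z ^ p = 1) : ∃ h ∈ E Q, h * z * h⁻¹ = z ^ 4 := by
  have hrc : ringChar F = p := ringChar.eq F p
  have h2 : (2 : F) ≠ 0 := by
    intro h
    have h1 : p ∣ 2 := (CharP.cast_eq_zero_iff F p 2).1 (by exact_mod_cast h)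
    exact hp2 ((Nat.prime_dvd_prime_iff_eq hp Nat.prime_two).1 h1)
  have hzI : z ∈ Isom (QuadraticMap.polarBilin Q) := by
    refine mem_isom.2 fun x y => ?_
    show QuadraticMap.polar Q (z x) (z y) = QuadraticMap.polar Q x y
    rw [QuadraticMap.polar, QuadraticMap.polar, ← map_add, hz, hz, hz]
  obtain ⟨h, hh, he⟩ := conj_pow_symm (B := QuadraticMap.polarBilin Q) (c := z) h2
    (fun x y => QuadraticMap.polar_comm _ _ _) (fun x hx => hG.nondeg x hx) hzI ⟨1, by rw [hrc, pow_one, hzp]⟩ (n := 2)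
    (by exact_mod_cast h2)
  have hO : h ∈ O Q := by
    intro x
    have h5 := mem_isom.1 hh x x
    apply mul_left_cancel₀ h2
    rw [Cfsg.Agent.H160.QDisc.two_mul_Q, Cfsg.Agent.H160.QDisc.two_mul_Q]
    exact h5
  refine ⟨h * h, Cfsg.Agent.H749.sq_mem_E hG hO, ?_⟩
  have e : h * h * z * (h * h)⁻¹ = h * (h * z * h⁻¹) * h⁻¹ := by group
  rw [e, he, ← conj_pow, he, ← pow_mul]

end Cfsg.Agent.H18.Carter.Uni
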